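import Cfsg.Agent.H6.Co3.D2.D0

set_option autoImplicit false
set_option maxRecDepth 100000
set_option Elab.async false

namespace Cfsg.H6.Co3.D2

theorem k0 : allR D.ok 0 40 = true := by decide +kernel

theorem k1 : allR D.ok 40 40 = true := by decide +kernel

theorem k2 : allR D.ok 80 40 = true := by decide +kernel

theorem k3 : allR D.ok 120 40 = true := by decide +kernel

theorem k4 : allR D.ok 160 40 = true := by decide +kernel

theorem k5 : allR D.ok 200 40 = true := by decide +kernel

end Cfsg.H6.Co3.D2
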