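import Cfsg.Agent.H6.Co3.D2.B0
import Cfsg.Agent.H6.Co3.D2.B1
import Cfsg.Agent.H6.Co3.D2.B2
import Cfsg.Agent.H6.Co3.D2.B3

set_option autoImplicit false
set_option maxRecDepth 100000
set_option Elab.async false

namespace Cfsg.H6.Co3.D2

theorem hv {G : Type*} [Group G] {ev : ℕ → G} {H : Subgroup G} (h : D.Hyp ev H) :
    ∀ c < 347, D.Valid ev H (D.cl c) :=
  Dce.all_valid h (range_join (range_join (range_join (allR_range k0 (by norm_num : 0 + 40 = 40)) (allR_range k1 (by norm_num : 40 + 40 = 80))) (range_join (allR_range k2 (by norm_num : 80 + 40 = 120)) (allR_range k3 (by norm_num : 120 + 40 = 160)))) (range_join (range_join (allR_range k4 (by norm_num : 160 + 40 = 200)) (allR_range k5 (by norm_num : 200 + 40 = 240))) (range_join (allR_range k6 (by norm_num : 240 + 40 = 280)) (range_join (allR_range k7 (by norm_num : 280 + 40 = 320)) (allR_range k8 (by norm_num : 320 + 27 = 347))))))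

theorem top : ⊤ ≤ gen P.ev (D.genW [0,1,2,3,4,5,6]) :=
  P.top.trans (gen_le_of_cyc P.hev P.hR (W := [[1], [3], [5], [7], [9], [11], [13], [1,1]]) (by decide +kernel))

def E : List (ℕ × ℕ) := [(1, 630), (0, 1), (3, 30240), (4, 80640), (5, 8960), (18, 48384), (25, 1920)]

theorem hT {G : Type*} [Group G] {ev : ℕ → G} {H : Subgroup G} {θ : P.Grp →* G}
    (M : D.Model ev P.ev θ P.φ P.img 630) (h : D.Hyp ev H) :
    ∀ i ∈ E.map Prod.fst, ∀ p, D.InU ev H θ (E.map Prod.fst) (evL ev (D.gw i) * θ p * ev D.T) :=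
  (List.forall_mem_cons.mpr ⟨Dce.fin_sound M h (hv h) f1, (List.forall_mem_cons.mpr ⟨Dce.fin_sound M h (hv h) f0, (List.forall_mem_cons.mpr ⟨Dce.fin_sound M h (hv h) f3, (List.forall_mem_cons.mpr ⟨Dce.fin_sound M h (hv h) f4, (List.forall_mem_cons.mpr ⟨Dce.fin_sound M h (hv h) f5, (List.forall_mem_cons.mpr ⟨Dce.fin_sound M h (hv h) f18, (List.forall_mem_cons.mpr ⟨Dce.fin_sound M h (hv h) f25, (by simp)⟩)⟩)⟩)⟩)⟩)⟩)⟩)

theorem hE {G : Type*} [Group G] {ev : ℕ → G} {H : Subgroup G} {θ : P.Grp →* G}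
    (M : D.Model ev P.ev θ P.φ P.img 630) (h : D.Hyp ev H) :
    ∀ e ∈ E, Cover ((rcStab H (evL ev (D.gw e.1))).comap θ) ⊤ e.2 := by
  have := P.finite
  exact (List.forall_mem_cons.mpr ⟨Dce.cover_one M h (hv h) (Gs := [9,10,11,12,13]) (by decide +kernel) s1 (by rw [P.card]; decide +kernel), (List.forall_mem_cons.mpr ⟨Dce.cover_top M h (hv h) (Gs := [0,1,2,3,4,5,6]) (by decide +kernel) top, (List.forall_mem_cons.mpr ⟨Dce.cover_one M h (hv h) (Gs := [29,30,31]) (by decide +kernel) s3 (by rw [P.card]; decide +kernel), (List.forall_mem_cons.mpr ⟨Dce.cover_one M h (hv h) (Gs := [35,36,37,38]) (by decide +kernel) s4 (by rw [P.card]; decide +kernel), (List.forall_mem_cons.mpr ⟨Dce.cover_one M h (hv h) (Gs := [41,42,43,44,201,202]) (by decide +kernel) s5 (by rw [P.card]; decide +kernel), (List.forall_mem_cons.mpr ⟨Dce.cover_one M h (hv h) (Gs := [128,265,266]) (by decide +kernel) s18 (by rw [P.card]; decide +kernel), (List.forall_mem_cons.mpr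 ⟨Dce.cover_one M h (hv h) (Gs := [151,152,237,238]) (by decide +kernel) s25 (by rw [P.card]; decide +kernel), (by simp)⟩)⟩)⟩)⟩)⟩)⟩)⟩)

theorem model {G : Type*} [Group G] {ev : ℕ → G} {θ : P.Grp →* G}
    (hθ : ∀ l, 1 ≤ l → l < 32 → θ (P.ev l) = ev l) : D.Model ev P.ev θ P.φ P.img 630 :=
  ⟨hθ, P.hφ0, P.lt0, P.stab, by decide +kernel⟩


end Cfsg.H6.Co3.D2
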